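import Cfsg.Agent.S4441
import Cfsg.Agent.S0716
import Cfsg.Agent.S0669
import Cfsg.Agent.DefOne.McKayCount
import Cfsg.Agent.Char.PermChar
import Cfsg.Agent.BlkChar.PModular

/-!
# A primitive rank three group of degree `2p` with a dihedral Sylow normaliser
-/

set_option linter.style.haveILetI false
set_option linter.unusedSectionVars false
set_option autoImplicit false

noncomputable section

namespace Cfsg.Agent.DegPM2

open Cfsg Cfsg.Agent.DefOne
open scoped Classical

universe u

variable {G : Type u} [Group G] [Fintype G] {p : ℕ} [Fact p.Prime]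

/-- With `C(P) = P` and `|N(P)| = 2p` the characters of degree prime to `p` form the principal
block. -/
theorem mem_principalBlock_of_not_dvd (hp5 : 5 ≤ p) (P : Sylow p G) (hP : Nat.card P = p)
    (hC : CP P = (P : Subgroup G)) (hN : Nat.card (NP P) = 2 * p) {M : Ideal AlgInt}
    (hM : IsPModular p M) : ∃ (x y : ℕ) (εx ε : ℤ), (εx = 1 ∨ εx = -1) ∧ (ε = 1 ∨ ε = -1) ∧
      ((x : ℤ) ≡ εx [ZMOD p]) ∧ ((y : ℤ) ≡ 2 * ε [ZMOD p]) ∧ ε * y = 1 + εx * x ∧
      (∃ φ : IrrCharacter G, charDegree (φ : G → ℂ) = y) ∧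
      ∀ φ : IrrCharacter G, (φ : G → ℂ) ≠ (fun _ => 1) → ¬ p ∣ charDegree (φ : G → ℂ) →
        charDegree (φ : G → ℂ) = x ∨ charDegree (φ : G → ℂ) = y := by
  have hp : p.Prime := Fact.out
  haveI := Block.isPrime_of_isPModular hM
  have hCc : Nat.card (CP P) = p := by rw [hC]; exact hP
  have he : (CP P).relIndex (NP P) = 2 := by
    have h := ((CP P).subgroupOf (NP P)).card_mul_index
    rw [Nat.card_congr (Subgroup.subgroupOfEquivOfLe (Subgroup.centralizer_le_normalizer _)).toEquiv,
      hCc, hN] at h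
    rw [Subgroup.relIndex]
    exact Nat.eq_of_mul_eq_mul_left hp.pos (h.trans (mul_comm 2 p))
  obtain ⟨X, Y, hB, hdis, hX, hY, εX, ε, hX', hε, hY', -, hrel⟩ :=
    S4441.result p M hM (by omega) P hP 2 he
  obtain ⟨L⟩ := exists_loc P hP
  have hsmall : ∀ k : ℤ, (k = 1 ∨ k = -1 ∨ k = 2 ∨ k = -2) → ∀ d : ℕ, (d : ℤ) ≡ k [ZMOD p] → ¬ p ∣ d := by
    intro k hk d hd hdvd
    have h1 : (p : ℤ) ∣ k := by
      have h2 := Int.modEq_iff_dvd.1 hd
      have h3 : (p : ℤ) ∣ (d : ℤ) := Int.natCast_dvd_natCast.2 hdvd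
      simpa using h2.add h3
    have h4 := Int.le_of_dvd (show 0 < |k| by rcases hk with h | h | h | h <;> subst h <;> decide)
      ((dvd_abs _ _).2 h1)
    rcases hk with h | h | h | h <;> subst h <;> norm_num at h4 <;> omega
  -- the count
  have hsub : principalBlock M G ⊆ {φ : IrrCharacter G | ¬ p ∣ charDegree (φ : G → ℂ)} := by
    intro φ hφ
    rw [hB] at hφ
    rcases hφ with h | h
    · obtain ⟨h1, h2, -⟩ := hX' φ h
      exact hsmall _ (by rcases h1 with h1 | h1 <;> simp [h1]) _ h2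
    · exact hsmall _ (by rcases hε with h1 | h1 <;> simp [h1]) _ (hY' φ h)
  have hall : principalBlock M G = {φ : IrrCharacter G | ¬ p ∣ charDegree (φ : G → ℂ)} := by
    refine Set.eq_of_subset_of_ncard_le hsub ?_ (Set.toFinite _)
    have htriv : ∀ θ : IrrCharacter (CP P), TrivP θ → θ = Char.trivialIrr (CP P) := by
      intro θ hθ
      have hc : ∀ c, (θ : CP P → ℂ) c = (θ : CP P → ℂ) 1 := fun c =>
        hθ c (by rw [← hC]; exact c.2)
      by_contra hne
      have hs := Char.irr_sum_eq_zero θ.2 fun h => hne (Subtype.ext h)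
      rw [Finset.sum_congr rfl fun c _ => hc c, Finset.sum_const, smul_eq_zero] at hs
      exact hs.elim (fun h => Fintype.card_ne_zero h) (Char.irr_one_ne_zero θ.2)
    have hT : (Finset.univ.filter fun θ : IrrCharacter (CP P) => TrivP θ)
        = {Char.trivialIrr (CP P)} := by
      ext θ
      simp only [Finset.mem_filter, Finset.mem_univ, true_and, Finset.mem_singleton]
      exact ⟨htriv θ, fun h => h ▸ fun _ _ => rfl⟩
    have h := L.card_pPrime hM
    rw [hT, Finset.sum_singleton] at h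
    have hs : Nat.card {n : NP P // Loc.tw n (Char.trivialIrr (CP P)) = Char.trivialIrr (CP P)}
        = 2 * p := by
      rw [Nat.card_congr (Equiv.subtypeUnivEquiv fun n => Subtype.ext (funext fun c => by
        rw [Loc.tw_apply]; rfl))]
      exact hN
    simp only [weight, hs, hCc, hN, Nat.mul_div_cancel _ hp.pos] at h
    rw [mul_div_assoc, div_self (Nat.cast_ne_zero.2 (by omega)), mul_one, Nat.cast_inj] at h
    rw [← Nat.card_coe_set_eq, Set.coe_setOf, h, hB, Set.ncard_union_eq hdis (Set.toFinite _) (Set.toFinite _),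
      ← Nat.card_coe_set_eq, ← Nat.card_coe_set_eq, hX, hY]
  have h1mem : Char.trivialIrr G ∈ principalBlock M G := Block.mem_blockOf_self (Char.trivialIrr G)
  have hd1 : charDegree ((Char.trivialIrr G : IrrCharacter G) : G → ℂ) = 1 :=
    Nat.cast_injective (R := ℂ) (by
      rw [← (Block.irr_one_eq_charDegree (Char.trivialIrr G).2).1, Nat.cast_one]; rfl)
  rw [hB] at h1mem
  have h1X : Char.trivialIrr G ∈ X := by
    refine h1mem.resolve_right fun h => ?_
    have h2 := hY' _ h
    rw [hd1, Nat.cast_one] at h2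
    have h3 := Int.modEq_iff_dvd.1 h2
    rcases hε with h4 | h4 <;> subst h4 <;>
      [(have h5 := Int.le_of_dvd (by norm_num) h3); (have h5 := Int.le_of_dvd (by norm_num) (dvd_neg.2 h3))] <;>
      norm_num at h5 <;> omega
  obtain ⟨a, b, hab, hXe⟩ := Set.ncard_eq_two.1 (show X.ncard = 2 by rw [← Nat.card_coe_set_eq, hX])
  obtain ⟨χ, hχne, hXe'⟩ : ∃ χ, χ ≠ Char.trivialIrr G ∧ X = {Char.trivialIrr G, χ} := by
    rw [hXe] at h1X
    rcases h1X with h | h
    · exact ⟨b, h ▸ hab.symm, by rw [hXe, h]⟩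
    · rw [Set.mem_singleton_iff] at h
      exact ⟨a, h ▸ hab, by rw [hXe, h, Set.pair_comm]⟩
  have hY0 : 0 < (p - 1) / 2 := Nat.div_pos (by omega) two_pos
  obtain ⟨θ, hθ⟩ : Y.Nonempty := Set.nonempty_of_ncard_ne_zero (by
    rw [← Nat.card_coe_set_eq, hY]; omega)
  have hr := hrel θ hθ 1 (by rw [orderOf_one]; exact hp.not_dvd_one)
  rw [hXe', finsum_mem_pair hχne.symm, (Block.irr_one_eq_charDegree θ.2).1,
    (Block.irr_one_eq_charDegree χ.2).1, (Block.irr_one_eq_charDegree (Char.trivialIrr G).2).1, hd1] at hr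
  have hX1 : εX (Char.trivialIrr G) = 1 := by
    obtain ⟨h1, h2, -⟩ := hX' _ h1X
    rw [hd1, Nat.cast_one] at h2
    refine h1.resolve_right fun h => ?_
    rw [h] at h2
    have := Int.le_of_dvd (by norm_num) (dvd_neg.2 (Int.modEq_iff_dvd.1 h2))
    omega
  obtain ⟨hχ1, hχ2, -⟩ := hX' χ (by rw [hXe']; exact Or.inr rfl)
  refine ⟨charDegree (χ : G → ℂ), charDegree (θ : G → ℂ), εX χ, ε, hχ1, hε, hχ2,
    by rw [mul_comm]; exact_mod_cast hY' θ hθ, ?_, ⟨θ, rfl⟩, ?_⟩
  · rw [hX1] at hr
    push_cast at hr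
    have : ((ε * (charDegree (θ : G → ℂ) : ℤ) : ℤ) : ℂ) = ((1 + εX χ * (charDegree (χ : G → ℂ) : ℤ) : ℤ) : ℂ) := by
      push_cast; linear_combination hr
    exact_mod_cast this
  · intro φ hne hd
    have hφ : φ ∈ principalBlock M G := by rw [hall]; exact hd
    rw [hB, hXe'] at hφ
    rcases hφ with (h | h) | h
    · exact absurd (congrArg Subtype.val h) hne
    · rw [Set.mem_singleton_iff.1 h]; exact Or.inl rfl
    · right
      refine Nat.cast_injective (R := ℂ) ?_
      have e1 := hrel φ h 1 (by rw [orderOf_one]; exact hp.not_dvd_one)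
      have e2 := hrel θ hθ 1 (by rw [orderOf_one]; exact hp.not_dvd_one)
      rw [← (Block.irr_one_eq_charDegree φ.2).1, ← (Block.irr_one_eq_charDegree θ.2).1]
      refine mul_left_cancel₀ ?_ (e1.trans e2.symm)
      rcases hε with h4 | h4 <;> simp [h4]

variable {X : Type*} [Fintype X] [MulAction G X]

/-- A group of rank three and degree `2p`: a faithful irreducible character of degree `p - 2`. -/
theorem exists_deg_p_sub_two [MulAction.IsPretransitive G X] (hp5 : 5 < p)
    (hX : Fintype.card X = 2 * p) (a₀ : X)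
    (hrank : Nat.card (MulAction.orbitRel.Quotient (MulAction.stabilizer G a₀) X) = 3)
    (P : Sylow p G) (hP : Nat.card P = p) (hC : CP P = (P : Subgroup G))
    (hN : Nat.card (NP P) = 2 * p) :
    ∃ θ : G → ℂ, IsIrrCharacter G θ ∧ charDegree θ = p - 2 := by
  have hp : p.Prime := Fact.out
  obtain ⟨M, hM⟩ := BlkChar.exists_isPModular p hp
  obtain ⟨x, y, εx, ε, hεx, hε, hx, hy, hrel, ⟨φ, hφ⟩, hdeg⟩ :=
    mem_principalBlock_of_not_dvd (by omega) P hP hC hN hM
  set π : G → ℂ := fun g => (Nat.card (MulAction.fixedBy X g) : ℂ) with hπ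
  have hπp : π = Char.permChar (G := G) X := rfl
  have hπc : IsCharacter G π := hπp ▸ Char.isCharacter_permChar X
  choose m hm using fun φ : IrrCharacter G => Char.isCharacter_classInner_nat hπc φ
  have hm01 : ∀ φ, m φ = 0 ∨ m φ = 1 := fun φ => by
    rcases (S0716.result a₀).2 (by omega) (φ : G → ℂ) φ.2 with h | h
    · left; rw [← hπ, hm φ] at h; exact_mod_cast h
    · right; rw [← hπ, hm φ] at h; exact_mod_cast h
  have hexp := Char.eq_sum_classInner_smul (Char.isCharacter_isClassFunction hπc)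
  have hm1 : m (Char.trivialIrr G) = 1 := by
    have h : classInner π ((Char.trivialIrr G : IrrCharacter G) : G → ℂ)
        = (Nat.card (Quotient (MulAction.orbitRel G X)) : ℂ) := by
      rw [hπp]; exact Char.classInner_permChar_one X
    haveI : Subsingleton (Quotient (MulAction.orbitRel G X)) :=
      MulAction.pretransitive_iff_subsingleton_quotient G X |>.1 inferInstance
    haveI : Nonempty (Quotient (MulAction.orbitRel G X)) := ⟨Quotient.mk _ a₀⟩
    rw [hm, Nat.card_unique, Nat.cast_inj] at h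
    exact h
  have hsq : ∑ φ : IrrCharacter G, m φ = 3 := by
    have h : classInner π π = (3 : ℂ) := by
      rw [hπp, Char.classInner_permChar_permChar]
      have h2 := S0669.result (G := G) (Ω := X) a₀
      rw [show Nat.card (Quotient (MulAction.orbitRel G (X × X))) = 3 from h2.trans hrank]
      norm_num
    nth_rewrite 1 [hexp] at h
    rw [CharInd.classInner_sum_left] at h
    have h3 : ∑ φ : IrrCharacter G, ((m φ : ℕ) : ℂ) = (3 : ℂ) := by
      rw [← h]
      refine Finset.sum_congr rfl fun φ _ => ?_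
      rw [CharInd.classInner_smul_left, hm, ← Char.classInner_conj π φ, hm, map_natCast]
      rcases hm01 φ with e | e <;> simp [e]
    exact_mod_cast h3
  set S := (Finset.univ.filter fun φ : IrrCharacter G => m φ = 1).erase (Char.trivialIrr G) with hS
  have hScard : S.card = 2 := by
    rw [hS, Finset.card_erase_of_mem (show Char.trivialIrr G ∈ Finset.univ.filter (fun φ => m φ = 1) by simp [hm1]),
      Finset.card_filter, ← Finset.sum_congr rfl (fun φ _ => show m φ = if m φ = 1 then 1 else 0 by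
        rcases hm01 φ with e | e <;> simp [e]), hsq]
  obtain ⟨f1, f2, h12, hSe⟩ := Finset.card_eq_two.1 hScard
  have hdeg2 : charDegree (f1 : G → ℂ) + charDegree (f2 : G → ℂ) + 1 = 2 * p := by
    refine Nat.cast_injective (R := ℂ) ?_
    have h := congrFun hexp 1
    have hπ1 : π 1 = ((2 * p : ℕ) : ℂ) := by
      simp only [hπ]
      rw [Nat.card_congr (Equiv.subtypeUnivEquiv (fun z => by simp [MulAction.mem_fixedBy])),
        Nat.card_eq_fintype_card, hX]
    simp only [Finset.sum_apply, Pi.smul_apply, smul_eq_mul, hm] at h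
    rw [hπ1] at h
    rw [Nat.cast_add, Nat.cast_add, ← (Block.irr_one_eq_charDegree f1.2).1,
      ← (Block.irr_one_eq_charDegree f2.2).1, h]
    rw [← Finset.sum_filter_add_sum_filter_not Finset.univ (fun φ => m φ = 1),
      ← Finset.add_sum_erase _ _ (Finset.mem_filter.2 ⟨Finset.mem_univ (Char.trivialIrr G), hm1⟩),
      ← hS, hSe, Finset.sum_pair h12]
    have e1 : m f1 = 1 ∧ m f2 = 1 := by
      have ha : f1 ∈ S := by rw [hSe]; simp
      have hb : f2 ∈ S := by rw [hSe]; simp
      exact ⟨(Finset.mem_filter.1 (Finset.mem_of_mem_erase ha)).2,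
        (Finset.mem_filter.1 (Finset.mem_of_mem_erase hb)).2⟩
    rw [Finset.sum_eq_zero (s := Finset.univ.filter fun φ => ¬ m φ = 1) fun φ hφ => by
      rw [(hm01 φ).resolve_right (Finset.mem_filter.1 hφ).2, Nat.cast_zero, zero_mul]]
    rw [hm1, e1.1, e1.2, show ((Char.trivialIrr G : IrrCharacter G) : G → ℂ) 1 = 1 from rfl]
    push_cast; ring
  have hne : ∀ f ∈ S, (f : G → ℂ) ≠ (fun _ => 1) := fun f hf h =>
    (Finset.mem_erase.1 hf).1 (Subtype.ext h)
  -- the degrees
  have hyp : y = p - 2 := by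
    set d1 := charDegree (f1 : G → ℂ)
    set d2 := charDegree (f2 : G → ℂ)
    have c1 : p ∣ d1 ∨ d1 = x ∨ d1 = y := (em _).imp_right (hdeg f1 (hne f1 (by rw [hSe]; simp)))
    have c2 : p ∣ d2 ∨ d2 = x ∨ d2 = y := (em _).imp_right (hdeg f2 (hne f2 (by rw [hSe]; simp)))
    have hpz : ∀ k : ℤ, (p : ℤ) ∣ k → |k| < p → k = 0 := fun k hk hlt =>
      Int.eq_zero_of_abs_lt_dvd hk hlt
    have hmx : (p : ℤ) ∣ εx - x := Int.modEq_iff_dvd.1 hx
    have hmy : (p : ℤ) ∣ 2 * ε - y := Int.modEq_iff_dvd.1 hy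
    have hd0 : 1 ≤ d1 ∧ 1 ≤ d2 := ⟨(Block.irr_one_eq_charDegree f1.2).2.1,
      (Block.irr_one_eq_charDegree f2.2).2.1⟩
    have hz : ((d1 : ℤ) + d2 + 1) = 2 * p := by exact_mod_cast hdeg2
    have hy0 : 1 ≤ y := hφ ▸ (Block.irr_one_eq_charDegree φ.2).2.1
    have hkey : ∀ u v : ℕ, p ∣ u → 1 ≤ u → 1 ≤ v → v = x → (u : ℤ) + v + 1 = 2 * p → y = p - 2 := by
      intro u v hu hu0 hv0 hv he
      rw [hv] at he hv0
      have h1 : (p : ℤ) ∣ εx + 1 := by
        have h := (hmx.add ((dvd_mul_left (p : ℤ) 2).sub (Int.natCast_dvd_natCast.2 hu)))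
        rw [show εx + 1 = εx - (x : ℤ) + (2 * (p : ℤ) - u) by linarith]
        exact h
      have h2 := hpz _ h1 (by rcases hεx with e | e <;> subst e <;> norm_num <;> omega)
      obtain ⟨k, hk⟩ := hu
      have hk0 : k ≠ 0 := fun h => by simp [h] at hk; omega
      have hple : p ≤ u := hk ▸ Nat.le_mul_of_pos_right p (Nat.pos_of_ne_zero hk0)
      have hεx' : εx = -1 := by linarith
      subst hεx'
      rcases hε with e | e <;> subst e
      · exfalso; linarith
      · have hxy : (y : ℤ) = x - 1 := by linarith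
        have h3 := hpz _ (show (p : ℤ) ∣ (x : ℤ) + 1 - p by
          have h := hmx.neg_right.sub (dvd_refl (p : ℤ))
          simpa [sub_eq_add_neg, add_comm] using h) (by
            rw [abs_lt]; constructor <;> push_cast <;> omega)
        omega
    rcases c1 with h1 | h1 | h1 <;> rcases c2 with h2 | h2 | h2
    · exfalso
      have := Int.natCast_dvd_natCast.2 (h1.add h2)
      push_cast at this
      have h := hpz 1 (by
        have h3 := (dvd_mul_left (p : ℤ) 2).sub this
        rwa [show (2 : ℤ) * p - (d1 + d2) = 1 by linarith] at h3) (by norm_num; omega)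
      omega
    · exact hkey d1 d2 h1 hd0.1 hd0.2 h2 hz
    · exfalso
      have h := hpz (2 * ε + 1) (by
        have h3 := hmy.add ((dvd_mul_left (p : ℤ) 2).sub (Int.natCast_dvd_natCast.2 h1))
        rw [show 2 * ε + 1 = 2 * ε - (y : ℤ) + (2 * (p : ℤ) - d1) by rw [h2] at hz; linarith]
        exact h3) (by rcases hε with e | e <;> subst e <;> norm_num <;> omega)
      omega
    · exact hkey d2 d1 h2 hd0.2 hd0.1 h1 (by linarith)
    · exfalso
      have h := hpz (2 * εx + 1) (by
        have h3 := (hmx.add hmx).add (dvd_mul_left (p : ℤ) 2)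
        rw [show 2 * εx + 1 = εx - (x : ℤ) + (εx - x) + 2 * (p : ℤ) by rw [h1, h2] at hz; linarith]
        exact h3) (by rcases hεx with e | e <;> subst e <;> norm_num <;> omega)
      omega
    · exfalso
      have h := hpz (εx + 2 * ε + 1) (by
        have h3 := (hmx.add hmy).add (dvd_mul_left (p : ℤ) 2)
        rw [show εx + 2 * ε + 1 = εx - (x : ℤ) + (2 * ε - y) + 2 * (p : ℤ) by rw [h1, h2] at hz; linarith]
        exact h3) (by rcases hεx with e | e <;> rcases hε with e' | e' <;> subst e e' <;> norm_num <;> omega)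
      rcases hεx with e | e <;> rcases hε with e' | e' <;> subst e e' <;> omega
    · exfalso
      have h := hpz (2 * ε + 1) (by
        have h3 := hmy.add ((dvd_mul_left (p : ℤ) 2).sub (Int.natCast_dvd_natCast.2 h2))
        rw [show 2 * ε + 1 = 2 * ε - (y : ℤ) + (2 * (p : ℤ) - d2) by rw [h1] at hz; linarith]
        exact h3) (by rcases hε with e | e <;> subst e <;> norm_num <;> omega)
      omega
    · exfalso
      have h := hpz (εx + 2 * ε + 1) (by
        have h3 := (hmx.add hmy).add (dvd_mul_left (p : ℤ) 2)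
        rw [show εx + 2 * ε + 1 = εx - (x : ℤ) + (2 * ε - y) + 2 * (p : ℤ) by rw [h1, h2] at hz; linarith]
        exact h3) (by rcases hεx with e | e <;> rcases hε with e' | e' <;> subst e e' <;> norm_num <;> omega)
      rcases hεx with e | e <;> rcases hε with e' | e' <;> subst e e' <;> omega
    · exfalso
      have h := hpz (4 * ε + 1) (by
        have h3 := (hmy.add hmy).add (dvd_mul_left (p : ℤ) 2)
        rw [show 4 * ε + 1 = 2 * ε - (y : ℤ) + (2 * ε - y) + 2 * (p : ℤ) by rw [h1, h2] at hz; linarith]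
        exact h3) (by rcases hε with e | e <;> subst e <;> norm_num <;> omega)
      omega
  exact ⟨φ, φ.2, hφ.trans hyp⟩

end Cfsg.Agent.DegPM2
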