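import Mathlib

/-!
# The point stabiliser of a primitive rank three group with subdegrees `1, 3, 6`
-/

set_option linter.style.haveILetI false
set_option linter.unusedSectionVars false
set_option autoImplicit false

noncomputable section

namespace Cfsg.Agent.DegPM2

open MulAction
open scoped Classical

variable {G : Type*} [Group G] [Finite G] {X : Type*} [Fintype X] [MulAction G X]
  [FaithfulSMul G X] [IsPreprimitive G X]

/-- In the Petersen graph case the point stabiliser has order dividing `48`. -/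
theorem card_stabilizer_dvd (hX : Fintype.card X = 10) (a b₁ : X) (hb₁ : b₁ ≠ a)
    (h3 : Nat.card (orbit (stabilizer G a) b₁) = 3)
    (hother : ∀ y, y ≠ a → y ∉ orbit (stabilizer G a) b₁ →
      Nat.card (orbit (stabilizer G a) y) = 6) :
    Nat.card (stabilizer G a) ∣ 48 := by
  set Δ : Set X := orbit (stabilizer G a) b₁ with hΔ
  have haΔ : a ∉ Δ := by
    rintro ⟨g, hg⟩
    have : (g : G) • b₁ = (g : G) • a := by
      rw [mem_stabilizer_iff.1 g.2]; exact hg
    exact hb₁ (MulAction.injective _ this)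
  -- the relation
  let R : X → X → Prop := fun x y => ∃ g : G, g • a = x ∧ g • b₁ = y
  have hRsmul : ∀ (g : G) (x y : X), R x y → R (g • x) (g • y) := by
    rintro g x y ⟨h, h1, h2⟩
    exact ⟨g * h, by rw [mul_smul, h1], by rw [mul_smul, h2]⟩
  have hRa : ∀ y, R a y ↔ y ∈ Δ := fun y =>
    ⟨fun ⟨g, h1, h2⟩ => ⟨⟨g, h1⟩, h2⟩, fun ⟨g, h⟩ => ⟨g, g.2, h⟩⟩
  let F : X → ℕ := fun y => Nat.card {g : G // g • a = a ∧ g • y = y}
  have horb : ∀ y, Nat.card (orbit (stabilizer G a) y) * F y = Nat.card (stabilizer G a) := by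
    intro y
    rw [← (stabilizer (stabilizer G a) y).card_mul_index, MulAction.index_stabilizer, mul_comm,
      Nat.card_coe_set_eq]
    congr 1
    exact Nat.card_congr
      { toFun := fun g => ⟨⟨g.1, g.2.1⟩, g.2.2⟩
        invFun := fun g => ⟨g.1.1, g.1.2, g.2⟩
        left_inv := fun g => rfl
        right_inv := fun g => rfl }
  have hsymm : ∀ x y, R x y → R y x := by
    have hb : R b₁ a := by
      obtain ⟨g, hg⟩ := exists_smul_eq G b₁ a
      have hcΔ : g • a ∈ Δ := by
        by_contra hc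
        have hca : g • a ≠ a := fun h => hb₁ (MulAction.injective g (hg.trans h.symm))
        have h6 := hother _ hca hc
        have hF : F (g • a) = F b₁ := by
          refine Nat.card_congr ((MulAut.conj g⁻¹).toEquiv.subtypeEquiv fun h => ?_)
          show _ ↔ (g⁻¹ * h * g⁻¹⁻¹) • a = a ∧ (g⁻¹ * h * g⁻¹⁻¹) • b₁ = b₁
          rw [inv_inv, mul_smul, mul_smul, mul_smul, mul_smul, hg, inv_smul_eq_iff, inv_smul_eq_iff, hg]
          exact and_comm
        have e1 := horb b₁
        have e2 := horb (g • a)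
        rw [h3] at e1
        rw [h6, hF] at e2
        have : 0 < Nat.card (stabilizer G a) := Nat.card_pos
        omega
      obtain ⟨h, h1, h2⟩ := (hRa _).2 hcΔ
      refine ⟨g⁻¹ * h, ?_, ?_⟩
      · rw [mul_smul, h1, inv_smul_eq_iff, hg]
      · rw [mul_smul, h2, inv_smul_smul]
    rintro x y ⟨g, h1, h2⟩
    have := hRsmul g _ _ hb
    rwa [h1, h2] at this
  let T : X → Set X := fun b => {y | R b y} \ {a}
  have hDcard : ∀ x, {y | R x y}.ncard = 3 := by
    intro x
    obtain ⟨g, rfl⟩ := exists_smul_eq G a x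
    have : {y | R (g • a) y} = (fun y => g • y) '' Δ := by
      ext y
      constructor
      · intro hy
        refine ⟨g⁻¹ • y, (hRa _).1 ?_, smul_inv_smul g y⟩
        have h := hRsmul g⁻¹ _ _ hy
        rwa [inv_smul_smul] at h
      · rintro ⟨z, hz, rfl⟩
        exact hRsmul g _ _ ((hRa z).2 hz)
    rw [this, Set.ncard_image_of_injective _ (MulAction.injective g), ← Nat.card_coe_set_eq]
    exact h3
  have hTcard : ∀ b ∈ Δ, (T b).ncard = 2 := fun b hb => by
    show ({y | R b y} \ {a}).ncard = 2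
    have hm : a ∈ {y | R b y} := hsymm _ _ ((hRa b).2 hb)
    rw [Set.ncard_sdiff_singleton_of_mem hm, hDcard]
  -- connectedness
  have hcover : ∀ x, x ≠ a → x ∉ Δ → ∃ b ∈ Δ, x ∈ T b := by
    obtain ⟨b, hb, y, hy, hya, hyΔ⟩ : ∃ b ∈ Δ, ∃ y, R b y ∧ y ≠ a ∧ y ∉ Δ := by
      by_contra hno
      push Not at hno
      set B : Set X := insert a Δ with hB
      have hBc : B.ncard = 4 := by
        rw [hB, Set.ncard_insert_of_notMem haΔ, ← Nat.card_coe_set_eq, h3]
      let S : Subgroup G :=
        { carrier := {g | ∀ x, x ∈ B → g • x ∈ B}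
          one_mem' := fun x hx => by rwa [one_smul]
          mul_mem' := fun hg hh x hx => by rw [mul_smul]; exact hg _ (hh _ hx)
          inv_mem' := fun {g} hg x hx => by
            have himg : (fun z => g • z) '' B = B := Set.eq_of_subset_of_ncard_le
              (by rintro _ ⟨z, hz, rfl⟩; exact hg z hz)
              (by rw [Set.ncard_image_of_injective _ (MulAction.injective g)]) (Set.toFinite _)
            rw [← himg] at hx
            obtain ⟨z, hz, rfl⟩ := hx
            rwa [inv_smul_smul] }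
      have hle : stabilizer G a ≤ S := by
        intro g hg x hx
        rcases hx with rfl | ⟨k, rfl⟩
        · rw [mem_stabilizer_iff.1 hg]; exact Or.inl rfl
        · exact Or.inr ⟨⟨g, hg⟩ * k, mul_smul _ _ _⟩
      haveI : Nontrivial X := ⟨⟨b₁, a, hb₁⟩⟩
      have hmax : IsCoatom (stabilizer G a) := (isCoatom_stabilizer_iff_preprimitive G a).2 inferInstance
      have htop : S = ⊤ := by
        refine (hmax.le_iff.1 hle).resolve_right fun heq => ?_
        obtain ⟨g, hg⟩ := exists_smul_eq G a b₁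
        have hgS : g ∈ S := by
          intro x hx
          rcases hx with rfl | hx
          · rw [hg]; exact Or.inr (mem_orbit_self b₁)
          · have h1 := hRsmul g _ _ ((hRa x).2 hx)
            rw [hg] at h1
            by_cases h2 : g • x = a
            · exact Or.inl h2
            · exact Or.inr (hno b₁ (mem_orbit_self b₁) _ h1 h2)
        rw [heq, mem_stabilizer_iff, hg] at hgS
        exact hb₁ hgS
      have huniv : B = Set.univ := Set.eq_univ_of_forall fun x => by
        obtain ⟨g, rfl⟩ := exists_smul_eq G a x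
        exact (htop ▸ Subgroup.mem_top g : g ∈ S) a (Or.inl rfl)
      rw [huniv, Set.ncard_univ, Nat.card_eq_fintype_card, hX] at hBc
      omega
    intro x hxa hxΔ
    have hsame : orbit (stabilizer G a) y = orbit (stabilizer G a) x := by
      by_contra hne
      have hd : Disjoint (orbit (stabilizer G a) y) (orbit (stabilizer G a) x) :=
        Set.disjoint_left.2 fun z hz hz' =>
          hne ((orbit_eq_iff.2 hz).symm.trans (orbit_eq_iff.2 hz'))
      have h1 := Set.ncard_union_eq hd (Set.toFinite _) (Set.toFinite _)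
      have h2 := Set.ncard_le_ncard (Set.subset_univ (orbit (stabilizer G a) y ∪ orbit (stabilizer G a) x))
      rw [Set.ncard_univ, Nat.card_eq_fintype_card, hX, h1, ← Nat.card_coe_set_eq,
        ← Nat.card_coe_set_eq, hother y hya hyΔ, hother x hxa hxΔ] at h2
      omega
    obtain ⟨g, hg⟩ : x ∈ orbit (stabilizer G a) y := hsame ▸ mem_orbit_self x
    obtain ⟨k, hk⟩ := hb
    refine ⟨(g : G) • b, ⟨g * k, ?_⟩, ?_, hxa⟩
    · show ((g * k : stabilizer G a) : G) • b₁ = _
      rw [Subgroup.coe_mul, mul_smul, ← hk]; rfl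
    · show R ((g : G) • b) x
      rw [← hg]; exact hRsmul g _ _ hy
  -- the restriction to the neighbours
  set f : stabilizer G a →* Equiv.Perm Δ := MulAction.toPermHom (stabilizer G a) Δ
  have hfix : ∀ g ∈ f.ker, ∀ b ∈ Δ, (g : G) • b = b := by
    intro g hg b hb
    exact congrArg Subtype.val (Equiv.Perm.ext_iff.1 (MonoidHom.mem_ker.1 hg) ⟨b, hb⟩)
  have hTmap : ∀ g ∈ f.ker, ∀ b ∈ Δ, ∀ y ∈ T b, (g : G) • y ∈ T b := by
    intro g hg b hb y hy
    have h := hRsmul (g : G) _ _ hy.1
    rw [hfix g hg b hb] at h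
    exact ⟨h, fun h' => hy.2 (MulAction.injective (g : G) (h'.trans (mem_stabilizer_iff.1 g.2).symm))⟩
  have hext : ∀ g ∈ f.ker, ∀ g' ∈ f.ker, (∀ b ∈ Δ, ∀ y ∈ T b, (g : G) • y = (g' : G) • y) → g = g' := by
    intro g hg g' hg' h
    refine Subtype.ext (FaithfulSMul.eq_of_smul_eq_smul (α := X) fun x => ?_)
    by_cases hxa : x = a
    · rw [hxa, mem_stabilizer_iff.1 g.2, mem_stabilizer_iff.1 g'.2]
    by_cases hxΔ : x ∈ Δ
    · rw [hfix g hg x hxΔ, hfix g' hg' x hxΔ]
    obtain ⟨b, hb, hxb⟩ := hcover x hxa hxΔ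
    exact h b hb x hxb
  choose u v huv hTe using fun b : Δ => Set.ncard_eq_two.1 (hTcard b b.2)
  have hu : ∀ b : Δ, u b ∈ T b := fun b => by rw [hTe]; exact Or.inl rfl
  have hv : ∀ b : Δ, v b ∈ T b := fun b => by rw [hTe]; exact Or.inr rfl
  let Φ : f.ker → (Δ → Bool) := fun g b => decide (((g : stabilizer G a) : G) • u b = u b)
  have hval : ∀ (g : f.ker) (b : Δ),
      ((((g : stabilizer G a) : G) • u b = u b) ∧ (((g : stabilizer G a) : G) • v b = v b)) ∨
      ((((g : stabilizer G a) : G) • u b = v b) ∧ (((g : stabilizer G a) : G) • v b = u b)) := by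
    intro g b
    have h1 := hTmap g g.2 b b.2 _ (hu b)
    have h2 := hTmap g g.2 b b.2 _ (hv b)
    have hne : ((g : stabilizer G a) : G) • u b ≠ ((g : stabilizer G a) : G) • v b := fun h =>
      huv b (MulAction.injective _ h)
    rw [hTe b] at h1 h2
    rcases h1 with h1 | h1 <;> rcases h2 with h2 | h2
    · exact absurd (h1.trans h2.symm) hne
    · exact Or.inl ⟨h1, h2⟩
    · exact Or.inr ⟨h1, h2⟩
    · exact absurd (Eq.trans (Set.mem_singleton_iff.1 h1) (Set.mem_singleton_iff.1 h2).symm) hne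
  have hΦ : Function.Injective Φ := by
    intro g g' h
    refine Subtype.ext (hext g g.2 g' g'.2 fun b hb y hy => ?_)
    have hb' := congrFun h ⟨b, hb⟩
    simp only [Φ, decide_eq_decide] at hb'
    rw [hTe ⟨b, hb⟩] at hy
    rcases hval g ⟨b, hb⟩ with ⟨a1, a2⟩ | ⟨a1, a2⟩ <;> rcases hval g' ⟨b, hb⟩ with ⟨c1, c2⟩ | ⟨c1, c2⟩
    · rcases hy with rfl | rfl <;> [exact a1.trans c1.symm; exact a2.trans c2.symm]
    · exact absurd (c1.symm.trans (hb'.1 a1)) (Ne.symm (huv _))
    · exact absurd (a1.symm.trans (hb'.2 c1)) (Ne.symm (huv _))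
    · rcases hy with rfl | rfl <;> [exact a1.trans c1.symm; exact a2.trans c2.symm]
  have hker8 : Nat.card f.ker ≤ 8 := by
    refine (Nat.card_le_card_of_injective Φ hΦ).trans ?_
    rw [Nat.card_fun, Nat.card_eq_fintype_card (α := Bool), Fintype.card_bool]
    exact le_of_eq (by rw [show Nat.card Δ = 3 from h3]; norm_num)
  have hsq : ∀ g : f.ker, g * g = 1 := by
    intro g
    refine Subtype.ext (hext _ (g * g).2 1 (one_mem _) fun b hb y hy => ?_)
    show (((g : stabilizer G a) : G) * (g : stabilizer G a)) • y = (1 : G) • y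
    rw [one_smul, mul_smul]
    rw [hTe ⟨b, hb⟩] at hy
    rcases hval g ⟨b, hb⟩ with ⟨a1, a2⟩ | ⟨a1, a2⟩ <;> rcases hy with rfl | rfl <;>
      simp only [a1, a2]
  have hk8 : Nat.card f.ker ∣ 8 := by
    have h2 : IsPGroup 2 f.ker := fun g => ⟨1, by rw [pow_one, pow_two, hsq]⟩
    haveI : Fact (Nat.Prime 2) := ⟨Nat.prime_two⟩
    obtain ⟨i, hi⟩ := h2.exists_card_eq
    rw [hi] at hker8 ⊢
    have : i ≤ 3 := by
      by_contra h
      have := Nat.pow_le_pow_right two_pos (show 4 ≤ i by omega)
      omega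
    exact Nat.pow_dvd_pow 2 this
  rw [← f.ker.card_mul_index, Subgroup.index_ker, show (48 : ℕ) = 8 * 6 from rfl]
  refine Nat.mul_dvd_mul hk8 ((Subgroup.card_subgroup_dvd_card _).trans (dvd_of_eq ?_))
  rw [Nat.card_perm, show Nat.card Δ = 3 from h3]
  rfl

end Cfsg.Agent.DegPM2
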