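import Cfsg.Agent.DegPM2.PermBlock
import Cfsg.Agent.DegPM2.PermFive
import Cfsg.Agent.DegPM2.Product
import Cfsg.Agent.S0720
import Cfsg.Agent.Suborbit.OrderSixtyGraph
import Cfsg.Agent.Linear.OrderSixty

/-!
# Primitive groups of degree `2p` with a dihedral Sylow normaliser
-/

set_option linter.style.haveILetI false
set_option linter.unusedSectionVars false
set_option autoImplicit false

noncomputable section

namespace Cfsg.Agent.DegPM2

open Cfsg Cfsg.Agent.DefOne MulAction
open scoped Classical

variable {α : Type*} [Fintype α] [DecidableEq α] {p : ℕ} [Fact p.Prime]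

theorem perm_main (hp3 : 3 < p) (hα : Fintype.card α = 2 * p) (G : Subgroup (Equiv.Perm α))
    (hprim : IsPreprimitive G α) (hnot2 : ¬ IsMultiplyPretransitive G α 2) (P : Sylow p G)
    (hN : Nat.card (Subgroup.normalizer ((P : Subgroup G) : Set G)) = 2 * p) :
    p = 5 ∧ Nonempty (G ≃* alternatingGroup (Fin 5)) := by
  have hp : p.Prime := Fact.out
  haveI := hprim
  haveI : Fintype G := Fintype.ofFinite G
  haveI : Nontrivial α := Fintype.one_lt_card_iff_nontrivial.1 (by omega)
  obtain ⟨a₀⟩ := (inferInstance : Nonempty α)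
  obtain ⟨hrank, s, hs0, hps, hsub⟩ := (S0720.result hp hα G hprim a₀).resolve_left hnot2
  have hGa : Nat.card G = 2 * p * Nat.card (stabilizer G a₀) := by
    rw [← (stabilizer G a₀).card_mul_index, index_stabilizer_of_transitive,
      Nat.card_eq_fintype_card (α := α), hα, mul_comm]
  have hpG : p ∣ Nat.card G := ⟨2 * Nat.card (stabilizer G a₀), by rw [hGa]; ring⟩
  have hNP : Nat.card (NP P) = 2 * p := hN
  have hP : Nat.card P = p := by
    obtain ⟨k, hk⟩ := P.2.exists_card_eq
    have h1 : p ^ k ∣ 2 * p := by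
      rw [← hk, ← hNP]; exact Subgroup.card_dvd_of_le Subgroup.le_normalizer
    have h2 : k ≠ 0 := fun h => by
      rw [h, pow_zero] at hk
      have h3 := P.card_eq_multiplicity
      rw [hk] at h3
      have := Nat.le_self_pow (hp.factorization_pos_of_dvd Nat.card_pos.ne' hpG).ne' p
      omega
    rcases Nat.lt_or_ge k 2 with h | h
    · rw [show Nat.card P = p ^ k from hk, show k = 1 by omega, pow_one]
    · exfalso
      have h4 : p * p ∣ 2 * p := by
        rw [← pow_two]; exact (Nat.pow_dvd_pow p h).trans h1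
      have h5 := Nat.le_of_dvd two_pos (Nat.dvd_of_mul_dvd_mul_right hp.pos h4)
      omega
  have hsq := not_sq_dvd P hP
  haveI : IsMulCommutative (P : Subgroup G) :=
    SmallGroups.isMulCommutative_of_prime_card (by rw [hP]; exact hp)
  have hPC : (P : Subgroup G) ≤ CP P := (P : Subgroup G).le_centralizer
  have htrans : ∀ N : Subgroup G, N.Normal → N ≠ ⊥ → 2 * p ∣ Nat.card N := by
    intro N hN' hne
    haveI := hN'
    have hfix : fixedPoints N α ≠ Set.univ := by
      intro h
      refine hne ((Subgroup.eq_bot_iff_forall _).2 fun g hg => ?_)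
      refine Subtype.ext (Equiv.Perm.ext fun x => ?_)
      exact (Set.eq_univ_iff_forall.1 h x) ⟨g, hg⟩
    haveI : IsPretransitive N α := IsQuasiPreprimitive.isPretransitive_of_normal hfix
    rw [← (stabilizer N a₀).card_mul_index, index_stabilizer_of_transitive,
      Nat.card_eq_fintype_card (α := α), hα]
    exact dvd_mul_left _ _
  have hnn : ¬ (P : Subgroup G).Normal := fun h => by
    have h1 := Nat.le_of_dvd (by rw [hP]; exact hp.pos) (htrans _ h (fun hb => by
      rw [hb, Subgroup.card_bot] at hP; exact hp.ne_one hP.symm))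
    rw [hP] at h1; omega
  have hC : CP P = (P : Subgroup G) := by
    refine le_antisymm ?_ hPC
    have hd : Nat.card (CP P) ∣ 2 * p := by
      rw [← hNP]; exact Subgroup.card_dvd_of_le (Subgroup.centralizer_le_normalizer _)
    obtain ⟨c, hc⟩ : p ∣ Nat.card (CP P) := by
      have := Subgroup.card_dvd_of_le hPC
      rwa [hP] at this
    rw [hc, mul_comm 2] at hd
    have hc2 := Nat.dvd_of_mul_dvd_mul_left hp.pos hd
    rcases (Nat.dvd_prime Nat.prime_two).1 hc2 with h | h
    · rw [h, mul_one] at hc
      exact (Subgroup.eq_of_le_of_card_ge hPC (by rw [hc, hP])).ge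
    · exfalso
      rw [h, mul_comm] at hc
      have hle : NP P ≤ CP P :=
        (Subgroup.eq_of_le_of_card_ge (Subgroup.centralizer_le_normalizer _) (by rw [hc, hNP])).ge
      obtain ⟨Q, N, hNn, hcompl⟩ := Transfer.hasNormalPComplement_of_normalizer_le_centralizer P hle
      have hNc : Nat.card N * Nat.card Q = Nat.card G := hcompl.card_mul
      have hQ : Nat.card Q = p := by
        obtain ⟨x, rfl⟩ := MulAction.exists_smul_eq G P Q
        rw [Sylow.coe_subgroup_smul]
        exact (Nat.card_congr (Subgroup.equivSMul (MulAut.conj x) (P : Subgroup G)).toEquiv).symm.trans hP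
      by_cases hb : N = ⊥
      · rw [hb, Subgroup.card_bot, one_mul, show Nat.card (Q : Subgroup G) = p from hQ, hGa] at hNc
        have := Nat.le_mul_of_pos_right (2 * p) (Nat.card_pos (α := stabilizer G a₀))
        omega
      · refine hsq ?_
        rw [← hNc, show Nat.card (Q : Subgroup G) = p from hQ, pow_two]
        exact Nat.mul_dvd_mul_right ((dvd_mul_left p 2).trans (htrans N hNn hb)) p
  have hZ : Subgroup.center G = ⊥ := by
    by_contra hne
    have hle : Subgroup.center G ≤ (P : Subgroup G) := hC ▸ Subgroup.center_le_centralizer _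
    refine hnn ?_
    rw [← Subgroup.eq_of_le_of_card_ge hle ?_]
    · infer_instance
    · have h1 := Subgroup.card_dvd_of_le hle
      rw [hP] at h1
      rcases (Nat.dvd_prime hp).1 h1 with h | h
      · exact absurd (Subgroup.card_eq_one.1 h) hne
      · rw [hP, h]
  -- the subdegree
  obtain ⟨b₁, hb₁⟩ := exists_ne a₀
  have hdiv : ∀ b : α, Nat.card (orbit (stabilizer G a₀) b) ∣ Nat.card (stabilizer G a₀) := fun b => by
    rw [Nat.card_congr (orbitEquivQuotientStabilizer _ b)]
    exact Subgroup.card_quotient_dvd_card _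
  have hd : (2 * s + 1) ∣ Nat.card (stabilizer G a₀) := by
    rcases hsub b₁ hb₁ with h | h <;> exact (h ▸ dvd_mul_left _ _ : (2 * s + 1) ∣ _).trans (hdiv b₁)
  by_cases hp5 : 5 < p
  · exfalso
    obtain ⟨θ, hθ, hθd⟩ := exists_deg_p_sub_two hp5 hα a₀ hrank P hP hC hNP
    have hfaith : ∀ g, θ g = θ 1 → g = 1 := by
      obtain ⟨K, hKn, hK⟩ := Char.isCharacter_exists_kernel (Char.isCharacter_of_irr hθ)
      suffices hKb : K = ⊥ by
        intro g hg
        exact Subgroup.mem_bot.1 (hKb ▸ (hK g).2 hg)
      by_contra hne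
      haveI := hKn
      have hpK : p ∣ Nat.card K := (dvd_mul_left p 2).trans (htrans K hKn hne)
      have hidx : ¬ p ∣ K.index := fun h => hsq (by
        rw [pow_two, ← K.card_mul_index]; exact Nat.mul_dvd_mul hpK h)
      have hPK : (P : Subgroup G) ≤ K := fun x hx => by
        rw [← QuotientGroup.eq_one_iff (N := K), ← orderOf_eq_one_iff]
        refine Nat.eq_one_of_dvd_coprimes (hp.coprime_iff_not_dvd.2 hidx) ?_ ?_
        · exact (orderOf_map_dvd (QuotientGroup.mk' K) x).trans
            (hP ▸ Subgroup.orderOf_dvd_natCard _ hx)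
        · rw [Subgroup.index_eq_card]; exact orderOf_dvd_natCard _
      have hfr : NP P ⊔ K = ⊤ := by
        refine eq_top_iff.2 fun g _ => ?_
        let P' : Sylow p K := P.subtype hPK
        have h1 := Sylow.normalizer_sup_eq_top P'
        rw [Sylow.coe_subtype, Subgroup.map_subgroupOf_eq_of_le hPK] at h1
        rw [show NP P = Subgroup.normalizer ((P : Subgroup G) : Set G) from rfl, h1]
        trivial
      have h2 : K.index ∣ 2 := by
        have h3 : K.index = K.relIndex (NP P) := by
          rw [← Subgroup.relIndex_sup_left, sup_comm K, hfr, Subgroup.relIndex_top_right]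
        have h4 : K.relIndex (NP P) ∣ (P : Subgroup G).relIndex (NP P) :=
          Subgroup.relIndex_dvd_of_le_left _ hPK
        have h5 : (P : Subgroup G).relIndex (NP P) = 2 := by
          have h := ((P : Subgroup G).subgroupOf (NP P)).card_mul_index
          rw [Nat.card_congr (Subgroup.subgroupOfEquivOfLe Subgroup.le_normalizer).toEquiv,
            show Nat.card (P : Subgroup G) = p from hP, hNP] at h
          rw [Subgroup.relIndex]
          exact Nat.eq_of_mul_eq_mul_left hp.pos (h.trans (mul_comm 2 p))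
        rw [h3]; exact h4.trans (dvd_of_eq h5)
      obtain ⟨ψ, hψ, hψg⟩ := Char.irr_exists_descend hθ K fun n hn => (hK n).1 hn
      obtain ⟨e1, -, e3⟩ := Block.irr_one_eq_charDegree hψ
      have h6 : charDegree ψ = p - 2 := by
        rw [← hθd]
        refine Nat.cast_injective (R := ℂ) ?_
        rw [← e1, ← (Block.irr_one_eq_charDegree hθ).1, hψg, QuotientGroup.mk_one]
      have h7 := e3.trans ((Subgroup.index_eq_card K) ▸ h2 : Nat.card (G ⧸ K) ∣ 2)
      rw [h6] at h7
      have := Nat.le_of_dvd two_pos h7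
      omega
    obtain ⟨L, ψ, b, D, -⟩ := exists_data hp5 P hP hnn hθ hfaith hθd
    have hidx := D.index_center.2
    rw [hZ, Subgroup.index_bot, hGa] at hidx
    have hh : (2 : ℤ) * Nat.card (stabilizer G a₀) = ((p : ℤ) - 1) * ((p : ℤ) - 2) := by
      have h8 : 2 * Nat.card (stabilizer G a₀) = (p - 1) * (p - 2) := by
        apply Nat.eq_of_mul_eq_mul_left hp.pos
        rw [← mul_assoc p, mul_comm p 2, hidx, mul_assoc]
      have h9 := congrArg (fun n : ℕ => (n : ℤ)) h8
      push_cast [Nat.cast_sub (show 1 ≤ p by omega), Nat.cast_sub (show 2 ≤ p by omega)] at h9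
      exact h9
    have h10 : ((2 * s + 1 : ℕ) : ℤ) ∣ 3 := by
      obtain ⟨k, hk⟩ := Int.natCast_dvd_natCast.2 hd
      refine ⟨8 * k - (2 * (s : ℤ) + 1) * ((2 * s + 1) ^ 2 - 4), ?_⟩
      rw [hk, hps] at hh
      push_cast at hh ⊢
      linear_combination -4 * hh
    have := Int.le_of_dvd (by norm_num) h10
    have hs1 : s ≤ 1 := by push_cast at this; omega
    interval_cases s
    omega
  · have hp5' : p = 5 := by
      rcases Nat.lt_or_ge p 5 with h | h
      · interval_cases p; exact absurd hp (by norm_num)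
      · omega
    subst hp5'
    refine ⟨rfl, ?_⟩
    have hs1 : s = 1 := by
      rcases Nat.lt_or_ge s 2 with h | h
      · omega
      · nlinarith
    subst hs1
    set M := Nat.card (stabilizer G a₀) with hM
    have hnS : Nat.card (Sylow 5 G) = M := by
      apply Nat.eq_of_mul_eq_mul_left (show 0 < 10 by norm_num)
      rw [Sylow.card_eq_index_normalizer P]
      have h := (Subgroup.normalizer ((P : Subgroup G) : Set G)).card_mul_index
      rw [hN, hGa] at h
      linarith [h, show (Subgroup.normalizer (P : Set G)).index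
        = (Subgroup.normalizer ((P : Subgroup G) : Set G)).index from rfl]
    have hmod : M ≡ 1 [MOD 5] := hnS ▸ card_sylow_modEq_one 5 G
    -- the two suborbits
    have hsize : ∀ b, b ≠ a₀ → Nat.card (orbit (stabilizer G a₀) b) = 3 ∨
        Nat.card (orbit (stabilizer G a₀) b) = 6 := fun b hb => by
      rcases hsub b hb with h | h <;> omega
    have horba : orbit (stabilizer G a₀) a₀ = {a₀} := by
      ext y; simp only [Set.mem_singleton_iff]
      exact ⟨fun ⟨g, hg⟩ => hg ▸ g.2, fun h => h ▸ mem_orbit_self _⟩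
    haveI : Fintype (orbitRel.Quotient (stabilizer G a₀) α) := Fintype.ofFinite _
    have hsum : ∑ ω : orbitRel.Quotient (stabilizer G a₀) α, Nat.card ω.orbit = 10 := by
      rw [← Nat.card_sigma, ← Nat.card_congr (selfEquivSigmaOrbits' (stabilizer G a₀) α),
        Nat.card_eq_fintype_card, hα]
    set ω₀ : orbitRel.Quotient (stabilizer G a₀) α := Quotient.mk _ a₀
    have hsplit := hsum
    rw [← Finset.add_sum_erase _ _ (Finset.mem_univ ω₀)] at hsplit
    have hω₀ : Nat.card ω₀.orbit = 1 := by
      rw [orbitRel.Quotient.orbit_mk, horba]; simp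
    have hc2 : (Finset.univ.erase ω₀).card = 2 := by
      rw [Finset.card_erase_of_mem (Finset.mem_univ _), Finset.card_univ, ← Nat.card_eq_fintype_card, hrank]
    obtain ⟨w1, w2, hw12, hwe⟩ := Finset.card_eq_two.1 hc2
    rw [hwe, Finset.sum_pair hw12, hω₀] at hsplit
    have hwne : ∀ w ∈ Finset.univ.erase ω₀, ∃ y, y ≠ a₀ ∧ w = Quotient.mk _ y := by
      intro w hw
      obtain ⟨y, rfl⟩ := Quotient.exists_rep w
      exact ⟨y, fun h => (Finset.mem_erase.1 hw).1 (by rw [h]), rfl⟩
    obtain ⟨y1, hy1, rfl⟩ := hwne w1 (by rw [hwe]; simp)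
    obtain ⟨y2, hy2, rfl⟩ := hwne w2 (by rw [hwe]; simp)
    rw [orbitRel.Quotient.orbit_mk, orbitRel.Quotient.orbit_mk] at hsplit
    obtain ⟨b, c, hb, hc, hbc, hb3, hc6⟩ : ∃ b c, b ≠ a₀ ∧ c ≠ a₀ ∧
        (Quotient.mk (orbitRel (stabilizer G a₀) α) b : orbitRel.Quotient (stabilizer G a₀) α) ≠ Quotient.mk _ c ∧
        Nat.card (orbit (stabilizer G a₀) b) = 3 ∧ Nat.card (orbit (stabilizer G a₀) c) = 6 := by
      rcases hsize y1 hy1 with h1 | h1
      · exact ⟨y1, y2, hy1, hy2, hw12, h1, by omega⟩
      · exact ⟨y2, y1, hy2, hy1, hw12.symm, by omega, h1⟩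
    have hM48 : M ∣ 48 := by
      refine card_stabilizer_dvd hα a₀ b hb hb3 fun y hy hyb => ?_
      have huniv : Finset.univ = {ω₀, Quotient.mk _ b, (Quotient.mk _ c : orbitRel.Quotient (stabilizer G a₀) α)} := by
        refine (Finset.eq_univ_of_card _ ?_).symm
        rw [← Nat.card_eq_fintype_card, hrank]
        have hne1 : ∀ z, z ≠ a₀ → ω₀ ≠ Quotient.mk _ z := fun z hz h => by
          have h' : a₀ ∈ orbit (stabilizer G a₀) z := Quotient.exact h
          obtain ⟨g, hg⟩ := h'
          refine hz ?_
          have h'' : (g : G) • z = (g : G) • a₀ := by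
            rw [mem_stabilizer_iff.1 g.2]; exact hg
          exact MulAction.injective _ h''
        rw [Finset.card_insert_of_notMem, Finset.card_pair hbc]
        simp [hne1 b hb, hne1 c hc]
      have hyq := Finset.mem_univ (Quotient.mk _ y : orbitRel.Quotient (stabilizer G a₀) α)
      rw [huniv, Finset.mem_insert, Finset.mem_insert, Finset.mem_singleton] at hyq
      rcases hyq with h | h | h
      · exfalso
        have h' : y ∈ orbit (stabilizer G a₀) a₀ := Quotient.exact h
        rw [horba] at h'; exact hy h'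
      · exact absurd (Quotient.exact h) hyb
      · rw [orbit_eq_iff.2 (Quotient.exact h : y ∈ orbit (stabilizer G a₀) c)]; exact hc6
    have h6 : 6 ∣ M := hc6 ▸ hdiv c
    have hM6 : M = 6 := by
      have hle := Nat.le_of_dvd (by norm_num) hM48
      have hMmod : M % 5 = 1 := hmod
      interval_cases M <;> omega
    have hG60 : Nat.card G = 60 := by rw [hGa, hM6]
    haveI : IsSimpleGroup G := DegreeSixty.isSimple_of_six hG60 (hnS.trans hM6)
    exact Linear.simple_order_sixty_iso hG60

end Cfsg.Agent.DegPM2
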